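import Cfsg.Agent.H177.NoSLTwo
import Cfsg.Agent.S0656

/-!
# No quadratic action

`H` acts irreducibly and nontrivially on the elementary abelian `p`-group `V`, `p` odd, and `H / C_H(V)` has no
section `SL(2, p)` (because its 2-subgroups are abelian or dihedral): no subgroup of `H` acts quadratically and
nontrivially.
-/

set_option autoImplicit false

namespace Cfsg.Agent.H177.NoQuad

open Subgroup Cfsg Cfsg.Agent.PLocal.QuadSection Cfsg.Agent.H177.NoSLTwo
open Cfsg.Agent.PLocal.StableOfNotInvolves (Inv)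
open scoped commutatorElement

section Abs

variable {M : Type*} [CommGroup M] {w : MulAut M}

/-- A quadratic automorphism of a group of exponent `p` has order dividing `p`. -/
theorem pow_eq_one {p : ℕ} (hM : ∀ v : M, v ^ p = 1) (hw : ∀ v, w (w v * v⁻¹) = w v * v⁻¹) :
    w ^ p = 1 := by
  have key : ∀ (k : ℕ) (v : M), (w ^ k) v = v * (w v * v⁻¹) ^ k := by
    intro k
    induction k with
    | zero => intro v; simp
    | succ k ih =>
      intro v
      rw [pow_succ', MulAut.mul_apply, ih, map_mul, map_pow, hw]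
      have h1 : w v = v * (w v * v⁻¹) := by
        rw [mul_comm v, inv_mul_cancel_right]
      calc w v * (w v * v⁻¹) ^ k = v * (w v * v⁻¹) * (w v * v⁻¹) ^ k := by rw [← h1]
        _ = v * (w v * v⁻¹) ^ (k + 1) := by rw [mul_assoc, ← pow_succ']
  ext v
  rw [key, hM, mul_one, MulAut.one_apply]

/-- A normal `p`-subgroup acts trivially on an irreducible `p`-group. -/
theorem pCore_eq_bot {Q : Type*} [Group Q] [Finite Q] [Finite M] {p : ℕ} [hp : Fact p.Prime]
    (hM : IsPGroup p M) [Nontrivial M] (θ : Q →* MulAut M) (hθ : Function.Injective θ)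
    (hirr : ∀ U : Subgroup M, (∀ q, ∀ u ∈ U, θ q u ∈ U) → U = ⊥ ∨ U = ⊤) :
    Cfsg.pCore p Q = ⊥ := by
  classical
  -- every normal `p`-subgroup is trivial
  have key : ∀ N : Subgroup Q, N.Normal → IsPGroup p N → N = ⊥ := by
    intro N hN hNp
    let act : MulAction N M :=
      { smul := fun g m => θ g.1 m
        one_smul := fun m => by
          change θ 1 m = m
          rw [map_one]; rfl
        mul_smul := fun g h m => by
          change θ (g.1 * h.1) m = θ g.1 (θ h.1 m)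
          rw [map_mul]; rfl }
    have hsmul : ∀ (g : N) (m : M), g • m = θ g.1 m := fun _ _ => rfl
    let U : Subgroup M :=
      { carrier := {m | ∀ g ∈ N, θ g m = m}
        one_mem' := fun g _ => map_one _
        mul_mem' := fun {a b} ha hb g hg => by rw [map_mul, ha g hg, hb g hg]
        inv_mem' := fun {a} ha g hg => by rw [map_inv, ha g hg] }
    have hU : ∀ q, ∀ u ∈ U, θ q u ∈ U := by
      intro q u hu g hg
      have h1 := hu _ (hN.conj_mem g hg q⁻¹)
      rw [inv_inv, map_mul, map_mul, MulAut.mul_apply, MulAut.mul_apply] at h1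
      have h2 := congrArg (θ q) h1
      have h3 : ∀ w : M, θ q (θ q⁻¹ w) = w := by
        intro w
        rw [← MulAut.mul_apply, ← map_mul, mul_inv_cancel, map_one]
        rfl
      rwa [h3] at h2
    rcases hirr U hU with h | h
    · exfalso
      have h1 := hNp.card_modEq_card_fixedPoints M
      have h2 : Nat.card (MulAction.fixedPoints N M) = 1 := by
        rw [Nat.card_eq_one_iff_unique]
        refine ⟨⟨fun a b => ?_⟩, ⟨⟨1, fun g => ?_⟩⟩⟩
        · have ha : (a : M) ∈ U := fun g hg => a.2 ⟨g, hg⟩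
          have hb : (b : M) ∈ U := fun g hg => b.2 ⟨g, hg⟩
          rw [h, mem_bot] at ha hb
          exact Subtype.ext (ha.trans hb.symm)
        · rw [hsmul, map_one]
      rw [h2] at h1
      obtain ⟨n, hn⟩ := IsPGroup.iff_card.1 hM
      have hn0 : n ≠ 0 := by
        rintro rfl
        rw [pow_zero] at hn
        exact absurd (Finite.one_lt_card_iff_nontrivial.2 ‹Nontrivial M›) (by rw [hn]; exact lt_irrefl 1)
      rw [hn] at h1
      have h3 : p ^ n ≡ 0 [MOD p] := (Nat.modEq_zero_iff_dvd).2 (dvd_pow_self p hn0)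
      have h4 := (h3.symm.trans h1).symm
      exact hp.out.one_lt.ne' (Nat.dvd_one.1 ((Nat.modEq_zero_iff_dvd).1 h4))
    · rw [eq_bot_iff]
      intro g hg
      rw [mem_bot]
      apply hθ
      rw [map_one]
      ext m
      have : m ∈ U := h ▸ mem_top m
      exact this g hg
  rw [Cfsg.pCore, eq_bot_iff]
  refine sSup_le ?_
  rintro N ⟨hN, hNp⟩
  rw [key N hN hNp]

/-- The abstract statement. -/
theorem main_abs {Q : Type*} [Group Q] [Finite Q] [Finite M] {p : ℕ} [hp : Fact p.Prime]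
    (hp2 : p ≠ 2) (hM : ∀ v : M, v ^ p = 1) [Nontrivial M] (θ : Q →* MulAut M)
    (hθ : Function.Injective θ)
    (hirr : ∀ U : Subgroup M, (∀ q, ∀ u ∈ U, θ q u ∈ U) → U = ⊥ ∨ U = ⊤) (hQ : SubAb Q) {a : Q}
    (ha : ∀ v, θ a (θ a v * v⁻¹) = θ a v * v⁻¹) : a = 1 := by
  by_contra ha1
  have hMp : IsPGroup p M := fun v => ⟨1, by rw [pow_one]; exact hM v⟩
  have hO := pCore_eq_bot hMp θ hθ hirr
  have hap : a ^ p = 1 := by
    apply hθ
    rw [map_pow, map_one]
    exact pow_eq_one hM ha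
  obtain ⟨g, hg⟩ := Cfsg.Agent.S0656.exists_conj_not_pGroup hO a ha1
    ⟨1, by rw [pow_one]; exact orderOf_eq_prime hap ha1⟩
  set Γ : Subgroup Q := Subgroup.closure ({a, g * a * g⁻¹} : Set Q) with hΓ
  have haΓ : a ∈ Γ := Subgroup.subset_closure (by simp)
  have hbΓ : g * a * g⁻¹ ∈ Γ := Subgroup.subset_closure (by simp)
  have hqb : ∀ v : M, θ (g * a * g⁻¹) (θ (g * a * g⁻¹) v * v⁻¹) = θ (g * a * g⁻¹) v * v⁻¹ := by
    intro v
    have h1 := ha (θ g⁻¹ v)
    have h2 : ∀ w : M, θ (g * a * g⁻¹) w = θ g (θ a (θ g⁻¹ w)) := by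
      intro w
      rw [map_mul, map_mul]
      rfl
    have h3 : ∀ w : M, θ g (θ g⁻¹ w) = w := by
      intro w
      rw [← MulAut.mul_apply, ← map_mul, mul_inv_cancel, map_one]
      rfl
    have h4 : θ (g * a * g⁻¹) v * v⁻¹ = θ g (θ a (θ g⁻¹ v) * (θ g⁻¹ v)⁻¹) := by
      rw [map_mul (θ g), map_inv (θ g), h3, h2]
    have h5 : ∀ w : M, θ g⁻¹ (θ g w) = w := by
      intro w
      rw [← MulAut.mul_apply, ← map_mul, inv_mul_cancel, map_one]
      rfl
    rw [h4, h2, h5, h1]
  obtain ⟨y, hy⟩ : ∃ y : Γ, ¬ ∃ k : ℕ, y ^ p ^ k = 1 := by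
    by_contra hcon
    push Not at hcon
    exact hg hcon
  have hgen : Subgroup.closure ({⟨a, haΓ⟩, ⟨g * a * g⁻¹, hbΓ⟩} : Set Γ) = ⊤ := by
    apply Subgroup.map_injective Γ.subtype_injective
    rw [MonoidHom.map_closure, Set.image_pair, ← MonoidHom.range_eq_map, Subgroup.range_subtype]
    exact hΓ.symm
  obtain ⟨L, f, hfs, -⟩ := exists_hom_sl_two_of_mulAut (V := M) hp2 hM
    (⟨a, haΓ⟩ : Γ) ⟨g * a * g⁻¹, hbΓ⟩ hgen (θ.comp Γ.subtype) ha hqb y (by
      rintro ⟨k, hk⟩
      apply hy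
      refine ⟨k, ?_⟩
      rw [← map_pow] at hk
      exact Subtype.ext (hθ (hk.trans (map_one θ).symm)))
  apply not_inv_sl2 hQ hp2
  refine ⟨L.map Γ.subtype,
    f.comp (L.equivMapOfInjective Γ.subtype Γ.subtype_injective).symm.toMonoidHom,
    hfs.comp (L.equivMapOfInjective Γ.subtype Γ.subtype_injective).symm.surjective⟩

end Abs

/-- The statement for subgroups. -/
theorem main {G : Type*} [Group G] [Finite G] {p : ℕ} [Fact p.Prime] (hp : p ≠ 2)
    (V H : Subgroup G) (hV : Cfsg.IsElementaryAbelian p V) (hHV : H ≤ normalizer (V : Set G))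
    (hirr : ∀ U : Subgroup G, U ≤ V → H ≤ normalizer (U : Set G) → U = ⊥ ∨ U = V)
    (hnt : ¬ H ≤ centralizer (V : Set G))
    [hn : ((centralizer (V : Set G)).subgroupOf H).Normal]
    (hQ : SubAb (H ⧸ (centralizer (V : Set G)).subgroupOf H)) (A : Subgroup G) (hA : A ≤ H)
    (hquad : ⁅⁅V, A⁆, A⁆ = ⊥) : ⁅V, A⁆ = ⊥ := by
  obtain ⟨hcomm, hexp⟩ := hV
  let _ : CommGroup V := { (inferInstance : Group V) with mul_comm := hcomm.is_comm.comm }
  let θ₀ : H →* MulAut V := V.normalizerMonoidHom.comp (Subgroup.inclusion hHV)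
  have hθ₀ : ∀ (h : H) (v : V), ((θ₀ h v : V) : G) = h * v * (h : G)⁻¹ := fun h v => rfl
  have hker : ∀ h : H, θ₀ h = 1 ↔ h ∈ (centralizer (V : Set G)).subgroupOf H := by
    intro h
    rw [mem_subgroupOf, mem_centralizer_iff]
    constructor
    · intro hh v hv
      have h2 := hθ₀ h ⟨v, hv⟩
      rw [hh] at h2
      have h3 : v = h * v * (h : G)⁻¹ := h2
      exact eq_mul_inv_iff_mul_eq.1 h3
    · intro hh
      ext v
      rw [hθ₀, MulAut.one_apply, mul_inv_eq_iff_eq_mul]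
      exact (hh v v.2).symm
  let θ : H ⧸ (centralizer (V : Set G)).subgroupOf H →* MulAut V :=
    QuotientGroup.lift _ θ₀ (fun h hh => (hker h).2 hh)
  have hθ : Function.Injective θ := by
    rw [injective_iff_map_eq_one]
    intro q hq
    obtain ⟨h, rfl⟩ := QuotientGroup.mk_surjective q
    rw [QuotientGroup.eq_one_iff]
    exact (hker h).1 hq
  have hVnt : Nontrivial V := by
    rw [Subgroup.nontrivial_iff_ne_bot]
    rintro rfl
    apply hnt
    intro h _
    rw [mem_centralizer_iff]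
    intro v hv
    rw [mem_bot.1 hv, one_mul, mul_one]
  have hirr' : ∀ U : Subgroup V, (∀ q, ∀ u ∈ U, θ q u ∈ U) → U = ⊥ ∨ U = ⊤ := by
    intro U hU
    have h1 : H ≤ normalizer ((U.map V.subtype : Subgroup G) : Set G) := by
      intro h hh
      rw [mem_normalizer_iff]
      have key : ∀ h ∈ H, ∀ x ∈ U.map V.subtype, h * x * h⁻¹ ∈ U.map V.subtype := by
        rintro h hh _ ⟨u, hu, rfl⟩
        exact ⟨θ₀ ⟨h, hh⟩ u, hU (QuotientGroup.mk ⟨h, hh⟩) u hu, rfl⟩
      intro x
      refine ⟨key h hh x, fun hx => ?_⟩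
      have h2 := key h⁻¹ (inv_mem hh) _ hx
      have e : h⁻¹ * (h * x * h⁻¹) * h⁻¹⁻¹ = x := by group
      rwa [e] at h2
    rcases hirr (U.map V.subtype) (map_subtype_le U) h1 with h2 | h2
    · left
      exact (Subgroup.map_eq_bot_iff_of_injective U V.subtype_injective).1 h2
    · right
      rw [eq_top_iff]
      intro v _
      have h3 : (v : G) ∈ U.map V.subtype := by rw [h2]; exact v.2
      obtain ⟨u, hu, huv⟩ := h3
      have : u = v := Subtype.ext huv
      exact this ▸ hu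
  -- every element of `A` acts trivially
  have hall : ∀ x (hx : x ∈ A), θ₀ ⟨x, hA hx⟩ = 1 := by
    intro x hx
    have h1 : (QuotientGroup.mk (⟨x, hA hx⟩ : H) : H ⧸ (centralizer (V : Set G)).subgroupOf H) = 1 := by
      refine main_abs hp (fun v => Subtype.ext (hexp v v.2)) θ hθ hirr' hQ ?_
      intro v
      change θ₀ ⟨x, hA hx⟩ (θ₀ ⟨x, hA hx⟩ v * v⁻¹) = θ₀ ⟨x, hA hx⟩ v * v⁻¹
      have h1 : ⁅(v : G), x⁆ ∈ ⁅V, A⁆ := Subgroup.commutator_mem_commutator v.2 hx
      have h2 : ⁅⁅(v : G), x⁆, x⁆ ∈ ⁅⁅V, A⁆, A⁆ := Subgroup.commutator_mem_commutator h1 hx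
      rw [hquad, Subgroup.mem_bot, commutatorElement_eq_one_iff_mul_comm] at h2
      have h3 : ((θ₀ ⟨x, hA hx⟩ v * v⁻¹ : V) : G) = (⁅(v : G), x⁆)⁻¹ := by
        rw [Subgroup.coe_mul, hθ₀, commutatorElement_def]
        simp [mul_assoc]
      apply Subtype.ext
      rw [hθ₀, h3]
      change x * (⁅(v : G), x⁆)⁻¹ * x⁻¹ = (⁅(v : G), x⁆)⁻¹
      rw [mul_inv_eq_iff_eq_mul]
      have h4 : Commute ⁅(v : G), x⁆ x := h2
      exact h4.inv_left.eq.symm
    rw [QuotientGroup.eq_one_iff] at h1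
    exact (hker _).2 h1
  rw [Subgroup.commutator_eq_bot_iff_le_centralizer]
  intro v hv
  rw [mem_centralizer_iff]
  intro x hx
  have h1 := hθ₀ ⟨x, hA hx⟩ ⟨v, hv⟩
  rw [hall x hx] at h1
  have h2 : v = x * v * x⁻¹ := h1
  exact (eq_mul_inv_iff_mul_eq.1 h2).symm

end Cfsg.Agent.H177.NoQuad
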